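import Mathlib.GroupTheory.SpecificGroups.Alternating.Simple
import Mathlib.GroupTheory.GroupAction.Jordan

/-!
# S1170: Carmichael's presentation of `A₇`, and subgroups of index seven
-/

set_option autoImplicit false

namespace Cfsg.Agent.C2.Sev

open Subgroup Equiv

section Carm
variable {K : Type*} [Group K]

theorem r2 {a b : K} (h : (a * b) ^ 2 = 1) : a * b = b⁻¹ * a⁻¹ := by
  rw [← mul_inv_rev, eq_inv_iff_mul_eq_one, ← pow_two, h]

theorem r2' {a b : K} (h : (a * b) ^ 2 = 1) : (b * a) ^ 2 = 1 := by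
  have : (b * a) ^ 2 = b * (a * b) ^ 2 * b⁻¹ := by simp only [pow_two]; group
  rw [this, h]; group

theorem r3 {a : K} (h : a ^ 3 = 1) : a * a = a⁻¹ := by
  rw [eq_inv_iff_mul_eq_one, ← h, pow_succ, pow_two]

theorem r4 {a b : K} (h : (a * b) ^ 2 = 1) : a * b * a = b⁻¹ := by
  rw [r2 h]; group

theorem carm_step [Finite K] (x : ℕ → K) (k : ℕ) (h3 : ∀ i ≤ k, x i ^ 3 = 1)
    (h2 : ∀ i ≤ k, ∀ j ≤ k, i ≠ j → (x i * x j) ^ 2 = 1) :
    Nat.card (closure (x '' {i | i < k + 1})) ≤ Nat.card (closure (x '' {i | i < k})) * (k + 3) := by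
  set H := closure (x '' {i | i < k}) with hH
  set y := x k with hy
  have hx : ∀ i < k, x i ∈ H := fun i hi => subset_closure ⟨i, hi, rfl⟩
  have y3 : y * y = y⁻¹ := r3 (h3 k le_rfl)
  have xy : ∀ i < k, (x i * y) ^ 2 = 1 := fun i hi => h2 i hi.le k le_rfl hi.ne
  let P : K → Prop := fun g => ∃ h ∈ H, g = h ∨ g = h * y ∨ g = h * y⁻¹ ∨
    ∃ i < k, g = h * (y⁻¹ * x i)
  have step : ∀ g, P g → ∀ j ≤ k, P (g * x j) := by
    rintro g ⟨h, hh, hg⟩ j hj
    rcases hj.lt_or_eq with hj | rfl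
    · rcases hg with rfl | rfl | rfl | ⟨i, hi, rfl⟩
      · exact ⟨_, H.mul_mem hh (hx j hj), Or.inl rfl⟩
      · refine ⟨h * (x j)⁻¹, H.mul_mem hh (H.inv_mem (hx j hj)), Or.inr (Or.inr (Or.inl ?_))⟩
        rw [mul_assoc, r2 (r2' (xy j hj)), mul_assoc]
      · exact ⟨h, hh, Or.inr (Or.inr (Or.inr ⟨j, hj, by rw [mul_assoc]⟩))⟩
      · by_cases e : i = j
        · subst e
          refine ⟨h * x i, H.mul_mem hh (hx i hi), Or.inr (Or.inl ?_)⟩
          rw [mul_assoc, mul_assoc, r3 (h3 i hi.le), mul_assoc, r2 (xy i hi)]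
        · refine ⟨h * (x j * (x i)⁻¹), H.mul_mem hh (H.mul_mem (hx j hj) (H.inv_mem (hx i hi))),
            Or.inr (Or.inr (Or.inr ⟨i, hi, ?_⟩))⟩
          have e1 := r4 (h2 i hi.le j hj.le e)
          have e2 := r2 (xy j hj)
          have e3 := r4 (r2' (xy i hi))
          have e4 := r3 (h3 i hi.le)
          have : y⁻¹ * (x i * x j) * (x i)⁻¹ * y = x j * (x i)⁻¹ := by
            calc y⁻¹ * (x i * x j) * (x i)⁻¹ * y = y⁻¹ * (x i * x j * x i) * x i * y := by
                  rw [← e4]; group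
              _ = x j * y * x i * y := by rw [e1, e2]
              _ = x j * (y * x i * y) := by group
              _ = _ := by rw [e3]
          rw [← this]; group
    · rcases hg with rfl | rfl | rfl | ⟨i, hi, rfl⟩
      · exact ⟨g, hh, Or.inr (Or.inl rfl)⟩
      · exact ⟨h, hh, Or.inr (Or.inr (Or.inl (by rw [mul_assoc, y3])))⟩
      · exact ⟨h, hh, Or.inl (by rw [← hy]; group)⟩
      · refine ⟨h * (x i)⁻¹, H.mul_mem hh (H.inv_mem (hx i hi)),
          Or.inr (Or.inr (Or.inr ⟨i, hi, ?_⟩))⟩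
        have e2 := r2 (xy i hi)
        have e3 := r4 (r2' (xy i hi))
        have e4 := r3 (h3 i hi.le)
        have e5 : y⁻¹ * y⁻¹ = y := by rw [← mul_inv_rev, y3, inv_inv]
        have e6 : (x i)⁻¹ * (x i)⁻¹ = x i := by rw [← mul_inv_rev, e4, inv_inv]
        have : y⁻¹ * (x i * y) * (x i)⁻¹ * y = (x i)⁻¹ := by
          calc y⁻¹ * (x i * y) * (x i)⁻¹ * y = (y⁻¹ * y⁻¹) * ((x i)⁻¹ * (x i)⁻¹) * y := by
                rw [e2]; group
            _ = _ := by rw [e5, e6, e3]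
        rw [← hy, ← this]; group
  have all : ∀ g ∈ closure (x '' {i | i < k + 1}), P g := by
    intro g hg
    induction hg using closure_induction_right with
    | one => exact ⟨1, H.one_mem, Or.inl rfl⟩
    | mul_right g _ z hz ih =>
      obtain ⟨j, hj, rfl⟩ := hz
      exact step g ih j (Nat.lt_succ_iff.1 hj)
    | mul_inv_cancel g _ z hz ih =>
      obtain ⟨j, hj, rfl⟩ := hz
      have hj' := Nat.lt_succ_iff.1 hj
      rw [← r3 (h3 j hj'), ← mul_assoc]
      exact step _ (step g ih j hj') j hj'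
  let ρ : Fin k ⊕ Fin 3 → K := Sum.elim (fun i => y⁻¹ * x i) ![1, y, y⁻¹]
  have ex : ∀ g : closure (x '' {i | i < k + 1}), ∃ p : H × (Fin k ⊕ Fin 3), (g : K) = p.1 * ρ p.2 := by
    rintro ⟨g, hg⟩
    obtain ⟨h, hh, e | e | e | ⟨i, hi, e⟩⟩ := all g hg
    · exact ⟨(⟨h, hh⟩, Sum.inr 0), by simpa [ρ] using e⟩
    · exact ⟨(⟨h, hh⟩, Sum.inr 1), by simpa [ρ] using e⟩
    · exact ⟨(⟨h, hh⟩, Sum.inr 2), by simpa [ρ] using e⟩
    · exact ⟨(⟨h, hh⟩, Sum.inl ⟨i, hi⟩), by simpa [ρ] using e⟩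
  choose f hf using ex
  have := Nat.card_le_card_of_injective f fun a b e => Subtype.ext (by rw [hf a, hf b, e])
  simpa using this

theorem carm [Finite K] (x : ℕ → K) (h3 : ∀ i < 5, x i ^ 3 = 1)
    (h2 : ∀ i < 5, ∀ j < 5, i ≠ j → (x i * x j) ^ 2 = 1) :
    Nat.card (closure (x '' {i | i < 5})) ≤ 2520 := by
  have s : ∀ k < 5, Nat.card (closure (x '' {i | i < k + 1})) ≤
      Nat.card (closure (x '' {i | i < k})) * (k + 3) := fun k hk =>
    carm_step x k (fun i hi => h3 i (by omega)) fun i hi j hj => h2 i (by omega) j (by omega)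
  have s0 : Nat.card (closure (x '' {i | i < 0})) = 1 := by simp
  have s1 := s 0 (by omega)
  have s2 := s 1 (by omega)
  have s3 := s 2 (by omega)
  have s4 := s 3 (by omega)
  have s5 := s 4 (by omega)
  norm_num at s1 s2 s3 s4 s5 s0 ⊢
  omega

end Carm

/-- The three-cycles of Carmichael's presentation. -/
def cc (i : ℕ) : Perm (Fin 7) := swap 0 1 * swap 0 (Fin.ofNat 7 (i + 2))

theorem cc3 : ∀ i < 5, cc i ^ 3 = 1 := by decide

theorem cc2 : ∀ i < 5, ∀ j < 5, i ≠ j → (cc i * cc j) ^ 2 = 1 := by decide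

theorem card_A7 : Nat.card (alternatingGroup (Fin 7)) = 2520 := by
  rw [nat_card_alternatingGroup]; simp [Nat.factorial]

theorem cc_gen : closure (cc '' {i | i < 5}) = alternatingGroup (Fin 7) := by
  have t3 : ∀ i < 5, (cc i).IsThreeCycle := fun i hi =>
    Perm.isThreeCycle_swap_mul_swap_same (by decide) (by revert i; decide) (by revert i; decide)
  set W := closure (cc '' {i | i < 5})
  have hx : ∀ i < 5, cc i ∈ W := fun i hi => subset_closure ⟨i, hi, rfl⟩
  refine le_antisymm ((closure_le _).2 ?_) ?_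
  · rintro _ ⟨i, hi, rfl⟩
    exact (t3 i hi).mem_alternatingGroup
  have h0 : ∀ k : Fin 7, ∃ g : W, g • (0 : Fin 7) = k := by
    intro k
    fin_cases k
    · exact ⟨1, rfl⟩
    · exact ⟨⟨cc 0 * cc 0, W.mul_mem (hx 0 (by omega)) (hx 0 (by omega))⟩,
        (by decide : (cc 0 * cc 0) 0 = 1)⟩
    · exact ⟨⟨cc 0, hx 0 (by omega)⟩, (by decide : cc 0 0 = 2)⟩
    · exact ⟨⟨cc 1, hx 1 (by omega)⟩, (by decide : cc 1 0 = 3)⟩
    · exact ⟨⟨cc 2, hx 2 (by omega)⟩, (by decide : cc 2 0 = 4)⟩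
    · exact ⟨⟨cc 3, hx 3 (by omega)⟩, (by decide : cc 3 0 = 5)⟩
    · exact ⟨⟨cc 4, hx 4 (by omega)⟩, (by decide : cc 4 0 = 6)⟩
  have : MulAction.IsPretransitive W (Fin 7) := ⟨fun a b => by
    obtain ⟨g, rfl⟩ := h0 a
    obtain ⟨h, rfl⟩ := h0 b
    exact ⟨h * g⁻¹, by rw [smul_smul]; simp⟩⟩
  exact Perm.alternatingGroup_le_of_isPreprimitive_of_isThreeCycle_mem
    (MulAction.IsPreprimitive.of_prime_card (by simpa using Nat.prime_seven)) (t3 0 (by omega))
    (hx 0 (by omega))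

variable {G : Type*} [Group G] [Finite G]

theorem iso_of_gens (hG : Nat.card G = 2520) (x : ℕ → G) (h3 : ∀ i < 5, x i ^ 3 = 1)
    (h2 : ∀ i < 5, ∀ j < 5, i ≠ j → (x i * x j) ^ 2 = 1) (h1 : x 0 ≠ 1) :
    Nonempty (G ≃* alternatingGroup (Fin 7)) := by
  let y : ℕ → G × Perm (Fin 7) := fun i => (x i, cc i)
  have hW := carm y (fun i hi => Prod.ext (h3 i hi) (cc3 i hi))
    fun i hi j hj e => Prod.ext (h2 i hi j hj e) (cc2 i hi j hj e)
  set W := closure (y '' {i | i < 5}) with hWd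
  have hm : W.map (MonoidHom.snd G _) = alternatingGroup (Fin 7) := by
    rw [hWd, MonoidHom.map_closure, ← cc_gen, Set.image_image]; rfl
  let f : W →* alternatingGroup (Fin 7) :=
    ((MonoidHom.snd G _).comp W.subtype).codRestrict _ fun w => hm ▸ mem_map_of_mem _ w.2
  have fs : Function.Surjective f := by
    rintro ⟨σ, hσ⟩
    obtain ⟨w, hw, rfl⟩ := (hm ▸ hσ : σ ∈ W.map _)
    exact ⟨⟨w, hw⟩, rfl⟩
  have fb : Function.Bijective f := fs.bijective_of_nat_card_le (by rw [card_A7]; exact hW)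
  let e := MulEquiv.ofBijective f fb
  let φ : alternatingGroup (Fin 7) →* G :=
    ((MonoidHom.fst G _).comp W.subtype).comp e.symm.toMonoidHom
  have := alternatingGroup.isSimpleGroup (α := Fin 7) (by simp)
  have hi : Function.Injective φ := by
    rw [← MonoidHom.ker_eq_bot_iff]
    refine (IsSimpleGroup.eq_bot_or_eq_top_of_normal φ.ker inferInstance).resolve_right fun h => h1 ?_
    have h0 : y 0 ∈ W := subset_closure ⟨0, by simp, rfl⟩
    have : e ⟨y 0, h0⟩ ∈ φ.ker := h ▸ mem_top _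
    simpa [φ, y] using this
  exact ⟨(MulEquiv.ofBijective φ (hi.bijective_of_nat_card_le (by rw [card_A7, hG]))).symm⟩

omit [Finite G] in
theorem inj_of_simple [IsSimpleGroup G] {H : Subgroup G} (h : H ≠ ⊤) :
    Function.Injective (MulAction.toPermHom G (G ⧸ H)) := by
  rw [← MonoidHom.ker_eq_bot_iff, ← normalCore_eq_ker]
  exact (IsSimpleGroup.eq_bot_or_eq_top_of_normal _ inferInstance).resolve_right fun e =>
    h (eq_top_iff.2 (e ▸ H.normalCore_le))

theorem index_ne_five [IsSimpleGroup G] (hG : Nat.card G = 2520) (H : Subgroup G) :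
    H.index ≠ 5 := fun h => by
  have := Nat.card_le_card_of_injective _ (inj_of_simple (H := H) (by rintro rfl; simp at h))
  rw [Nat.card_perm, ← index_eq_card, h, hG] at this
  simp [Nat.factorial] at this

theorem iso_of_index [IsSimpleGroup G] (hG : Nat.card G = 2520) {H : Subgroup G} (h : H.index = 7) :
    Nonempty (G ≃* alternatingGroup (Fin 7)) := by
  have hi := inj_of_simple (H := H) (by rintro rfl; simp at h)
  let e : G ⧸ H ≃ Fin 7 := Finite.equivFinOfCardEq (by rw [← index_eq_card, h])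
  let ψ : G →* Perm (Fin 7) := e.permCongrHom.toMonoidHom.comp (MulAction.toPermHom G (G ⧸ H))
  have hψ : Function.Injective ψ := e.permCongrHom.injective.comp hi
  have hc : Nat.card ψ.range = 2520 := by
    rw [← hG]; exact Nat.card_congr (MonoidHom.ofInjective hψ).symm.toEquiv
  have hr : ψ.range = alternatingGroup (Fin 7) := by
    apply Perm.eq_alternatingGroup_of_index_eq_two
    have := ψ.range.index_mul_card
    rw [hc, Nat.card_perm] at this
    simp [Nat.factorial] at this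
    omega
  exact ⟨(MonoidHom.ofInjective hψ).trans (MulEquiv.subgroupCongr hr)⟩

end Cfsg.Agent.C2.Sev
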