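import Cfsg.Agent.Lib.C2.A7a
import Cfsg.Agent.Lib.GW.Basic

/-!
# S1170: the geometry of the seventy elements of order three
-/

set_option autoImplicit false
set_option linter.unusedSectionVars false
set_option linter.unusedVariables false

namespace Cfsg.Agent.C2.Sev

open Subgroup Cfsg.Agent.FT Cfsg.Agent.GW

variable {G : Type*} [Group G] {T : Set G} {a b g s t u v w x y z : G}

/-- `x` and `y` are equal up to inversion. -/
def Ev (x y : G) : Prop := y = x ∨ y = x⁻¹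

/-- `v` is trivial or an involution commuting with `x`. -/
def Vx (x v : G) : Prop := v * v = 1 ∧ Commute v x

/-- `y` is a neighbour of `x`. -/
def Nb (T : Set G) (x y : G) : Prop := y ∈ T ∧ Commute x y ∧ ¬ Ev x y

theorem Ev.rfl' (x : G) : Ev x x := Or.inl rfl
theorem Ev.symm (h : Ev x y) : Ev y x := by
  rcases h with rfl | rfl
  · exact Or.inl rfl
  · exact Or.inr (inv_inv x).symm
theorem Ev.trans (h : Ev x y) (h' : Ev y z) : Ev x z := by
  rcases h with rfl | rfl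
  · exact h'
  · rcases h' with rfl | rfl
    · exact Or.inr rfl
    · exact Or.inl (inv_inv x)
theorem Ev.conj (h : Ev x y) (g : G) : Ev (g * x * g⁻¹) (g * y * g⁻¹) := by
  rcases h with rfl | rfl
  · exact Or.inl rfl
  · exact Or.inr (by group)
theorem Ev.comm (h : Ev x y) (h' : Commute z x) : Commute z y := by
  rcases h with rfl | rfl
  · exact h'
  · exact h'.inv_right
theorem cconj (h : Commute x y) (g : G) : Commute (g * x * g⁻¹) (g * y * g⁻¹) := by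
  have := h.eq
  change _ * _ = _ * _
  calc g * x * g⁻¹ * (g * y * g⁻¹) = g * (x * y) * g⁻¹ := by group
    _ = _ := by rw [this]; group
theorem cfix (h : Commute g x) : g * x * g⁻¹ = x := by rw [h.eq]; group
theorem of_fix (h : g * x * g⁻¹ = x) : Commute g x := mul_inv_eq_iff_eq_mul.1 h
theorem Vx.inv (h : Vx x v) : v⁻¹ = v := inv_eq_of_mul_eq_one_right h.1
theorem Vx.conj (h : Vx x v) (g : G) : Vx (g * x * g⁻¹) (g * v * g⁻¹) :=
  ⟨by calc g * v * g⁻¹ * (g * v * g⁻¹) = g * (v * v) * g⁻¹ := by group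
      _ = 1 := by rw [h.1]; group, cconj h.2 g⟩
theorem Vx.ev (h : Vx x v) (e : Ev x y) : Vx y v := ⟨h.1, e.comm h.2⟩
theorem Vx.nrm (h : Vx x v) (e : Ev x (g * x * g⁻¹)) : Vx x (g * v * g⁻¹) := (h.conj g).ev e.symm
theorem Vx.cm (h : Vx x v) (e : Commute g x) : Vx x (g * v * g⁻¹) :=
  h.nrm (Or.inl (cfix e))
theorem Vx.inv' (h : Vx x v) : Vx x v⁻¹ := h.inv.symm ▸ h
theorem cne (h : v ≠ 1) (g : G) : g * v * g⁻¹ ≠ 1 := by simpa using h
theorem ne_inv3 (h : x ^ 3 = 1) (h1 : x ≠ 1) : x ≠ x⁻¹ := fun e => h1 (by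
  have := r3 h
  rw [← e] at this
  simpa using this)
theorem inv_conj (e : g * x * g⁻¹ = x⁻¹) : g * x⁻¹ * g⁻¹ = x := by
  calc g * x⁻¹ * g⁻¹ = (g * x * g⁻¹)⁻¹ := by group
    _ = x := by rw [e, inv_inv]
theorem comm_of_ev (hg : g ^ 3 = 1) (hx : x ^ 3 = 1) (e : Ev x (g * x * g⁻¹)) : Commute g x := by
  rcases e with e | e
  · exact of_fix e
  · have e' : g * x⁻¹ * g⁻¹ = x := inv_conj e
    have : g ^ 3 * x * (g ^ 3)⁻¹ = x⁻¹ := by
      calc g ^ 3 * x * (g ^ 3)⁻¹ = g * (g * (g * x * g⁻¹) * g⁻¹) * g⁻¹ := by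
            simp only [pow_succ, pow_zero]; group
        _ = _ := by rw [e, e', e]
    rw [hg] at this
    by_cases x1 : x = 1
    · simp [x1]
    · exact absurd (by simpa using this) (ne_inv3 hx x1)

/-- The local data of `A₇` on the class of three-cycles. -/
structure Cx (T : Set G) : Prop where
  cube : ∀ x ∈ T, x ^ 3 = 1
  ne : ∀ x ∈ T, x ≠ 1
  conj : ∀ x ∈ T, ∀ g, g * x * g⁻¹ ∈ T
  inv : ∀ x ∈ T, x⁻¹ ∈ T
  card : T.ncard = 70
  cent : ∀ x ∈ T, Nat.card 𝒞[x] = 36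
  four : ∀ x ∈ T, ∃ V : Subgroup G, Nat.card V = 4 ∧ ∀ v, v ∈ V ↔ Vx x v
  max : ∀ v w t : G, Two v w → t * t = 1 → Commute t v → Commute t w → t ∈ V4 v w
  odd : ∀ t, t * t = 1 → t ≠ 1 → ∀ x ∈ T, Commute t x → ∀ g, g ^ 3 = 1 → Commute t g →
    g = 1 ∨ Ev x g
  exi : ∀ t, t * t = 1 → t ≠ 1 → ∃ z ∈ T, t * z * t⁻¹ = z⁻¹
  exu : ∀ t, t * t = 1 → t ≠ 1 → ∃ u ∈ T, Commute t u

theorem Nb.symm (h : Nb T x y) (hx : x ∈ T) : Nb T y x := ⟨hx, h.2.1.symm, fun e => h.2.2 e.symm⟩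

namespace Cx
variable [Finite G] (h : Cx T)
include h

theorem nb_conj (n : Nb T x y) (g : G) : Nb T (g * x * g⁻¹) (g * y * g⁻¹) :=
  ⟨h.conj _ n.1 g, cconj n.2.1 g, fun e => n.2.2 (by simpa [mul_assoc] using e.conj g⁻¹)⟩

theorem uniq (hx : x ∈ T) (hy : y ∈ T) (h1 : v ≠ 1) (vx : Vx x v) (vy : Commute v y) : Ev x y :=
  (h.odd v vx.1 h1 x hx vx.2 y (h.cube y hy) vy).resolve_left (h.ne y hy)

theorem vmul (hx : x ∈ T) (hv : Vx x v) (hw : Vx x w) : Vx x (v * w) := by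
  obtain ⟨V, -, hV⟩ := h.four x hx
  exact (hV _).1 (V.mul_mem ((hV _).2 hv) ((hV _).2 hw))

theorem two (hx : x ∈ T) (hv : Vx x v) (hw : Vx x w) (v1 : v ≠ 1) (w1 : w ≠ 1) (ne : v ≠ w) :
    Two v w := by
  refine ⟨orderOf_eq_prime (by rw [pow_two, hv.1]) v1, orderOf_eq_prime (by rw [pow_two, hw.1]) w1,
    ne, ?_⟩
  rw [← (h.vmul hx hv hw).inv, mul_inv_rev, hv.inv, hw.inv]

theorem mem4 (hx : x ∈ T) (hv : Vx x v) (hw : Vx x w) (v1 : v ≠ 1) (w1 : w ≠ 1) (ne : v ≠ w) :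
    Vx x t ↔ t ∈ V4 v w := by
  obtain ⟨V, c, hV⟩ := h.four x hx
  have t2 := h.two hx hv hw v1 w1 ne
  have : V4 v w = V := eq_of_le_of_card_ge ((closure_le _).2 (by
    rintro _ (rfl | rfl)
    exacts [(hV _).2 hv, (hV _).2 hw])) (by rw [c, t2.card])
  rw [this, hV]

theorem vmax (hx : x ∈ T) (hv : Vx x v) (hw : Vx x w) (v1 : v ≠ 1) (w1 : w ≠ 1) (ne : v ≠ w)
    (ht : t * t = 1) (c1 : Commute t v) (c2 : Commute t w) : Commute t x :=
  ((h.mem4 hx hv hw v1 w1 ne).2 (h.max v w t (h.two hx hv hw v1 w1 ne) ht c1 c2)).2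

theorem free (hx : x ∈ T) (n : Nb T x y) (hv : Vx x v) (e : Ev y (v * y * v⁻¹)) : v = 1 := by
  by_contra v1
  rcases e with e | e
  · exact n.2.2 (h.uniq hx n.1 v1 hv (of_fix e))
  · have h1 := (h.vmul hx (hv.cm n.2.1.symm) hv.inv').1
    have e2 : y * v * y⁻¹ * v⁻¹ = y⁻¹ := by
      calc y * v * y⁻¹ * v⁻¹ = y * (v * y⁻¹ * v⁻¹) := by group
        _ = _ := by rw [inv_conj e, r3 (h.cube y n.1)]
    rw [e2] at h1
    exact ne_inv3 (h.cube y n.1) (h.ne y n.1) (by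
      rw [eq_inv_iff_mul_eq_one, ← inv_inj, mul_inv_rev, h1, inv_one])

theorem w1 (hx : x ∈ T) (n : Nb T x y) (hw : Vx y w) (h1 : w ≠ 1) :
    Vx y (x⁻¹ * (w * x * w⁻¹)) ∧ x⁻¹ * (w * x * w⁻¹) ≠ 1 := by
  refine ⟨?_, fun e => h1 (h.free n.1 (n.symm hx) hw (Or.inl (inv_mul_eq_one.1 e).symm))⟩
  have := h.vmul n.1 (hw.cm n.2.1.inv_left) hw.inv'
  simpa [mul_assoc] using this

theorem cn (hx : x ∈ T) (n : Nb T x y) (hw : Vx y w) (h1 : w ≠ 1) (hz : z ∈ T)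
    (c1 : Commute z x) (c2 : Commute z (w * x * w⁻¹)) : Ev y z :=
  h.uniq n.1 hz (h.w1 hx n hw h1).2 (h.w1 hx n hw h1).1 (c1.inv_right.mul_right c2).symm

theorem ntri (hx : x ∈ T) (n : Nb T x y) (hw : Vx y w) (h1 : w ≠ 1) :
    ¬ Commute x (w * x * w⁻¹) := fun c =>
  n.2.2 (h.cn hx n hw h1 hx (Commute.refl x) c).symm

theorem exists_nb (hx : x ∈ T) : ∃ y, Nb T x y := by
  classical
  by_contra hn
  push Not at hn
  have := Fintype.ofFinite T
  have : Fact (Nat.Prime 3) := ⟨Nat.prime_three⟩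
  let f : Function.End T := fun y => ⟨x * y * x⁻¹, h.conj _ y.2 x⟩
  have hf : f ^ 3 ^ 1 = 1 := by
    funext y
    apply Subtype.ext
    change x * (x * (x * (y : G) * x⁻¹) * x⁻¹) * x⁻¹ = y
    calc x * (x * (x * (y : G) * x⁻¹) * x⁻¹) * x⁻¹ = x ^ 3 * y * (x ^ 3)⁻¹ := by
          simp only [pow_succ, pow_zero]; group
      _ = y := by rw [h.cube x hx]; simp
  have h1 := Equiv.Perm.card_fixedPoints_modEq hf
  have h2 : Subtype.val '' (Function.fixedPoints f) = {x, x⁻¹} := by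
    ext y
    constructor
    · rintro ⟨⟨y, hy⟩, e, rfl⟩
      have e' : x * y * x⁻¹ = y := congrArg Subtype.val e
      by_contra c
      exact hn y ⟨hy, of_fix e', c⟩
    · rintro (rfl | rfl)
      · exact ⟨⟨y, hx⟩, Subtype.ext (by simp [f]), rfl⟩
      · exact ⟨⟨x⁻¹, h.inv x hx⟩, Subtype.ext (by simp [f]), rfl⟩
  have h3 := congrArg Set.ncard h2
  rw [Set.ncard_image_of_injective _ Subtype.val_injective,
    Set.ncard_pair (ne_inv3 (h.cube x hx) (h.ne x hx))] at h3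
  rw [← Nat.card_eq_fintype_card, ← Nat.card_eq_fintype_card, Nat.card_coe_set_eq,
    Nat.card_coe_set_eq, h.card, h3] at h1
  exact absurd h1 (by decide)

theorem cent_inj (hx : x ∈ T) (hz : z ∈ T) (hv : Vx x v) (v1 : v ≠ 1)
    (e : v * z * v⁻¹ = z⁻¹) : 𝒞[x] ⊓ 𝒞[z] = ⊥ := by
  have nz : z ≠ z⁻¹ := ne_inv3 (h.cube z hz) (h.ne z hz)
  have ne : ¬ Ev x z := fun c => nz (by rw [← e, cfix (c.comm hv.2)])
  by_contra hb
  have hd : Nat.card (𝒞[x] ⊓ 𝒞[z] : Subgroup G) ∣ 36 := h.cent x hx ▸ card_dvd_of_le inf_le_left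
  obtain ⟨p, hp, hpd⟩ := Nat.exists_prime_and_dvd (mt card_eq_one.1 hb)
  have := Fact.mk hp
  obtain ⟨⟨g, g1, g2⟩, hg⟩ := exists_prime_orderOf_dvd_card' p hpd
  rw [← orderOf_coe] at hg
  replace g1 : Commute g x := mem_cent1.1 g1
  replace g2 : Commute g z := mem_cent1.1 g2
  simp only at hg
  have go : g ≠ 1 := by rintro rfl; rw [orderOf_one] at hg; exact hp.one_lt.ne hg
  have hp36 : p ∣ 2 ^ 2 * 3 ^ 2 := hpd.trans hd
  rcases (Nat.Prime.dvd_mul hp).1 hp36 with d | d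
  · have := (Nat.prime_dvd_prime_iff_eq hp Nat.prime_two).1 (hp.dvd_of_dvd_pow d)
    subst this
    exact ne (h.uniq hx hz go ⟨by rw [← pow_two, ← hg, pow_orderOf_eq_one], g1⟩ g2)
  · have := (Nat.prime_dvd_prime_iff_eq hp Nat.prime_three).1 (hp.dvd_of_dvd_pow d)
    subst this
    have g3 : g ^ 3 = 1 := by rw [← hg, pow_orderOf_eq_one]
    have k1 := h.vmul hx (hv.cm g1) hv.inv'
    have k2 : Commute (g * v * g⁻¹ * v⁻¹) z := by
      have c := cconj g2.inv_left v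
      rw [e] at c
      have := g2.mul_left (by simpa using c.inv_right)
      simpa [mul_assoc] using this
    have k3 : Commute v g := by
      by_contra c
      refine ne (h.uniq hx hz (fun e => c ?_) k1 k2)
      exact (of_fix (mul_inv_eq_one.1 e)).symm
    have k4 := (h.odd v hv.1 v1 x hx hv.2 g g3 k3).resolve_left go
    exact v1 (h.free hx ⟨hz, (k4.symm.comm g2.symm).symm, ne⟩ hv (Or.inr e))

end Cx

end Cfsg.Agent.C2.Sev
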