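import Cfsg.Agent.Lib.C2.A7b

/-!
# S1170: Carmichael generators from the geometry of the elements of order three
-/

set_option autoImplicit false
set_option linter.unusedSectionVars false
set_option linter.unusedVariables false

namespace Cfsg.Agent.C2.Sev

open Subgroup Cfsg.Agent.FT Cfsg.Agent.GW

variable {G : Type*} [Group G] {T : Set G} {a b g s t u v w x y z α β : G}

theorem ev_of_eq {e e' : G} (he : e ∈ ({x, x⁻¹} : Set G)) (he' : e' ∈ ({x, x⁻¹} : Set G))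
    (h : g * e * g⁻¹ = e') : Ev x (g * x * g⁻¹) := by
  have h1 : Ev x e := he
  have h2 : Ev x e' := he'
  exact h2.trans (h ▸ (h1.conj g).symm)

namespace Cx
variable [Finite G] (h : Cx T)
include h

theorem part (hx : x ∈ T) (n : Nb T x y) :
    (∀ y', Nb T x y' → ∃ v, Vx x v ∧ Ev (v * y * v⁻¹) y') ∧
    ∀ z ∈ T, Ev x z ∨ Nb T x z ∨
      (∃ y, Nb T x y ∧ ∃ w, Vx y w ∧ w ≠ 1 ∧ Ev (w * x * w⁻¹) z) ∨
      ∃ v, Vx x v ∧ v ≠ 1 ∧ v * z * v⁻¹ = z⁻¹ := by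
  have ni : ∀ z ∈ T, z ≠ z⁻¹ := fun z hz => ne_inv3 (h.cube z hz) (h.ne z hz)
  have evT : ∀ {p q : G}, p ∈ T → Ev p q → q ∈ T := fun hp e => by
    rcases e with rfl | rfl
    exacts [hp, h.inv _ hp]
  obtain ⟨V, cV, hV⟩ := h.four x hx
  obtain ⟨W, cW, hW⟩ := h.four y n.1
  let A0 : Set G := {x, x⁻¹}
  let A1 : Set G := {y | Nb T x y}
  let A2 : Set G := {z | ∃ y, Nb T x y ∧ ∃ w, Vx y w ∧ w ≠ 1 ∧ Ev (w * x * w⁻¹) z}
  let A3 : Set G := {z | z ∈ T ∧ ∃ v, Vx x v ∧ v ≠ 1 ∧ v * z * v⁻¹ = z⁻¹}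
  let B1 : Set G := (fun p : G × G => p.1 * p.2 * p.1⁻¹) '' ((V : Set G) ×ˢ {y, y⁻¹})
  have c0 : A0.ncard = 2 := Set.ncard_pair (ni x hx)
  have cV' : (V : Set G).ncard = 4 := cV
  have cW' : ((W : Set G) \ {1}).ncard = 3 := by
    rw [Set.ncard_sdiff_singleton_of_mem W.one_mem]; exact congrArg (· - 1) cW
  have s1 : B1 ⊆ A1 := by
    rintro _ ⟨⟨v, e⟩, ⟨hv, he⟩, rfl⟩
    have := h.nb_conj n v
    rw [cfix ((hV v).1 hv).2] at this
    have ee : Ev (v * y * v⁻¹) (v * e * v⁻¹) := Ev.conj he v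
    exact ⟨evT this.1 ee, ee.comm this.2.1, fun c => this.2.2 (c.trans ee.symm)⟩
  have c1 : B1.ncard = 8 := by
    rw [Set.InjOn.ncard_image, Set.ncard_prod, cV', Set.ncard_pair (ni y n.1)]
    rintro ⟨v, e⟩ ⟨hv, he⟩ ⟨v', e'⟩ ⟨hv', he'⟩ hh
    simp only at hh hv hv' he he'
    have k : v'⁻¹ * v * e * (v'⁻¹ * v)⁻¹ = e' := by
      calc _ = v'⁻¹ * (v * e * v⁻¹) * v' := by group
        _ = e' := by rw [hh]; group
    have k1 := h.free hx n ((hV _).1 (V.mul_mem (V.inv_mem hv') hv)) (ev_of_eq he he' k)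
    rw [k1] at k
    exact Prod.ext (inv_mul_eq_one.1 k1).symm (by simpa using k)
  have c2 : 24 ≤ A2.ncard := by
    have : ((fun p : G × G × G => p.1 * (p.2.1 * p.2.2 * p.2.1⁻¹) * p.1⁻¹) ''
        ((V : Set G) ×ˢ (((W : Set G) \ {1}) ×ˢ {x, x⁻¹}))).ncard = 24 := by
      rw [Set.InjOn.ncard_image, Set.ncard_prod, Set.ncard_prod, cV', cW', c0]
      rintro ⟨v, w, e⟩ ⟨hv, ⟨hw, w1⟩, he⟩ ⟨v', w', e'⟩ ⟨hv', ⟨hw', w1'⟩, he'⟩ hh
      simp only at hh hv hv' he he' hw hw' w1 w1'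
      have vv := (hV _).1 (V.mul_mem (V.inv_mem hv') hv)
      have k : v'⁻¹ * v * (w * e * w⁻¹) * (v'⁻¹ * v)⁻¹ = w' * e' * w'⁻¹ := by
        calc _ = v'⁻¹ * (v * (w * e * w⁻¹) * v⁻¹) * v' := by group
          _ = _ := by rw [hh]; group
      have q1 : Commute y (w * e * w⁻¹) := by
        have := cconj (Ev.comm he n.2.1.symm) w
        rwa [cfix ((hW w).1 hw).2] at this
      have q2 := cconj q1 (v'⁻¹ * v)
      rw [k] at q2
      have q3 := cconj n.2.1.symm (v'⁻¹ * v)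
      rw [cfix vv.2] at q3
      have k1 := h.free hx n vv (h.cn hx n ((hW _).1 hw') w1' (h.conj _ n.1 _) q3
        ((Ev.conj he' w').symm.comm q2))
      rw [k1] at k
      have k2 : w'⁻¹ * w * e * (w'⁻¹ * w)⁻¹ = e' := by
        calc _ = w'⁻¹ * (1 * (w * e * w⁻¹) * 1⁻¹) * w' := by group
          _ = _ := by rw [k]; group
      have k3 := h.free n.1 (n.symm hx) ((hW _).1 (W.mul_mem (W.inv_mem hw') hw))
        (ev_of_eq he he' k2)
      rw [k3] at k2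
      exact Prod.ext (inv_mul_eq_one.1 k1).symm
        (Prod.ext (inv_mul_eq_one.1 k3).symm (by simpa using k2))
    rw [← this]
    refine Set.ncard_le_ncard ?_
    rintro _ ⟨⟨v, w, e⟩, ⟨hv, ⟨hw, w1⟩, he⟩, rfl⟩
    have f := cfix ((hV v).1 hv).2
    have := h.nb_conj n v
    rw [f] at this
    refine ⟨_, this, _, ((hW w).1 hw).conj v, cne w1 v, ?_⟩
    have e1 := (Ev.conj he w).conj v
    have e2 : v * w * v⁻¹ * x * (v * w * v⁻¹)⁻¹ = v * (w * x * w⁻¹) * v⁻¹ := by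
      calc _ = v * w * v⁻¹ * (v * x * v⁻¹) * (v * w * v⁻¹)⁻¹ := by rw [f]
        _ = _ := by group
    rw [e2]; exact e1
  have c3 : 36 ≤ A3.ncard := by
    obtain ⟨v, hv, v1⟩ : ∃ v ∈ V, v ≠ 1 := by
      by_contra c
      push Not at c
      rw [(eq_bot_iff_forall V).2 c, card_bot] at cV
      omega
    have vx := (hV v).1 hv
    obtain ⟨z, hz, e⟩ := h.exi v vx.1 v1
    have ci := h.cent_inj hx hz vx v1 e
    have : ((fun g : G => g * z * g⁻¹) '' (𝒞[x] : Subgroup G)).ncard = 36 := by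
      rw [Set.InjOn.ncard_image]
      · exact h.cent x hx
      intro g hg g' hg' hh
      simp only at hh
      have : g'⁻¹ * g ∈ (𝒞[x] ⊓ 𝒞[z] : Subgroup G) := mem_inf.2 ⟨(𝒞[x] : Subgroup G).mul_mem
        ((𝒞[x] : Subgroup G).inv_mem hg') hg, mem_cent1.2 (of_fix (by
        calc _ = g'⁻¹ * (g * z * g⁻¹) * g' := by group
          _ = z := by rw [hh]; group))⟩
      rw [ci, mem_bot] at this
      exact (inv_mul_eq_one.1 this).symm
    rw [← this]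
    refine Set.ncard_le_ncard ?_
    rintro _ ⟨g, hg, rfl⟩
    refine ⟨h.conj _ hz g, _, vx.cm (mem_cent1.1 hg), cne v1 g, ?_⟩
    calc _ = g * (v * z * v⁻¹) * g⁻¹ := by group
      _ = _ := by rw [e]; group
  have d01 : Disjoint A0 A1 := Set.disjoint_left.2 fun z h0 h1 => h1.2.2 h0
  have d2 : Disjoint (A0 ∪ A1) A2 := Set.disjoint_left.2 (by
    rintro z (h0 | h1) ⟨y, n, w, hw, w1, e⟩
    · exact w1 (h.free n.1 (n.symm hx) hw (Ev.trans h0 e.symm))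
    · exact h.ntri hx n hw w1 (e.symm.comm h1.2.1))
  have d3 : Disjoint (A0 ∪ A1 ∪ A2) A3 := Set.disjoint_left.2 (by
    rintro z ((h0 | h1) | ⟨y, n, w, hw, w1, e⟩) ⟨hz, v, hv, v1, e'⟩
    · exact ni z hz (by rw [← e', cfix (Ev.comm h0 hv.2)])
    · exact v1 (h.free hx h1 hv (Or.inr e'))
    · have q1 : Commute y z := by
        have := cconj n.2.1.symm w
        rw [cfix hw.2] at this
        exact e.comm this
      have q2 := cconj q1 v
      rw [e'] at q2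
      have q3 := cconj n.2.1.symm v
      rw [cfix hv.2] at q3
      exact v1 (h.free hx n hv (h.cn hx n hw w1 (h.conj _ n.1 _) q3
        (e.symm.comm (by simpa using q2.inv_right)))))
  have sub : A0 ∪ A1 ∪ A2 ∪ A3 ⊆ T := by
    rintro z (((h0 | h1) | ⟨y, n, w, hw, w1, e⟩) | h3)
    exacts [evT hx h0, h1.1, evT (h.conj _ hx w) e, h3.1]
  have tot := Set.ncard_le_ncard sub
  have cu : (A0 ∪ A1 ∪ A2 ∪ A3).ncard = 2 + A1.ncard + A2.ncard + A3.ncard := by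
    rw [Set.ncard_union_eq d3, Set.ncard_union_eq d2, Set.ncard_union_eq d01, c0]
  have c1' := Set.ncard_le_ncard s1
  rw [h.card] at tot
  have e1 : B1 = A1 := Set.eq_of_subset_of_ncard_le s1 (by omega)
  have e2 := Set.eq_of_subset_of_ncard_le sub (by rw [h.card]; omega)
  refine ⟨fun y' hy' => ?_, fun z hz => ?_⟩
  · obtain ⟨⟨v, e⟩, ⟨hv, he⟩, rfl⟩ : y' ∈ B1 := e1 ▸ hy'
    exact ⟨v, (hV v).1 hv, Ev.conj he v⟩
  · rw [← e2] at hz
    rcases hz with ((h0 | h1) | h2) | h3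
    exacts [Or.inl h0, Or.inr (Or.inl h1), Or.inr (Or.inr (Or.inl h2)), Or.inr (Or.inr (Or.inr h3.2))]

theorem key (ha : a ∈ T) (hα : Vx a α) (α1 : α ≠ 1) (hβ : β * β = 1) (c : Commute β α)
    (hv : Vx a v) (v1 : v ≠ 1) (ne : α ≠ v) : Commute β a ∨ β * v * β⁻¹ = α * v := by
  have e := h.uniq ha (h.conj a ha β) α1 hα (by have := cconj hα.2 β; rwa [cfix c] at this)
  have := (h.mem4 ha hα hv α1 v1 ne).1 (hv.nrm e)
  rcases (h.two ha hα hv α1 v1 ne).mem_iff.1 this with k | k | k | k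
  · exact absurd k (cne v1 β)
  · exact absurd (by simpa using k.trans (cfix c).symm : v = α) ne.symm
  · exact Or.inl (h.vmax ha hα hv α1 v1 ne hβ c (of_fix k))
  · exact Or.inr k

theorem star (ha : a ∈ T) (hb : b ∈ T) (na : Nb T a y) (nb : Nb T b y) (hα : Vx a α) (α1 : α ≠ 1)
    (hβ : Vx b β) (β1 : β ≠ 1) (c : Commute α β) : Ev a b := by
  have n1 : α ≠ y⁻¹ * α * y⁻¹⁻¹ := fun e =>
    na.2.2 (h.uniq ha na.1 α1 hα (by simpa using (of_fix e.symm).inv_left.symm))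
  have n2 : β ≠ y * β * y⁻¹ := fun e => nb.2.2 (h.uniq hb nb.1 β1 hβ (of_fix e.symm).symm)
  rcases h.key ha hα α1 hβ.1 c.symm (hα.cm na.2.1.symm.inv_left) (cne α1 _) n1 with k1 | k1
  · exact (h.uniq hb ha β1 hβ k1).symm
  rcases h.key hb hβ β1 hα.1 c (hβ.cm nb.2.1.symm) (cne β1 _) n2 with k2 | k2
  · exact h.uniq ha hb α1 hα k2
  have e1 : α = β * (y⁻¹ * α * y) * β⁻¹ * (y⁻¹ * α * y)⁻¹ := by
    rw [inv_inv] at k1; rw [k1]; group
  have e2 : y⁻¹ * β * y⁻¹⁻¹ = α⁻¹ := by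
    calc _ = y⁻¹ * (β * (y * β * y⁻¹)) * y * β⁻¹ := by group
      _ = (β * (y⁻¹ * α * y) * β⁻¹ * (y⁻¹ * α * y)⁻¹)⁻¹ := by rw [← k2]; group
      _ = _ := by rw [← e1]
  have := hβ.cm nb.2.1.symm.inv_left
  rw [e2, hα.inv] at this
  exact h.uniq ha hb α1 hα this.2

section O
variable (s2 : s * s = 1) (s1 : s ≠ 1) (hu : u ∈ T) (su : Commute s u)
include s2 s1 hu su

theorem nc0 (hx : x ∈ T) (e : Ev x (s * x * s⁻¹)) (c : Commute u x) : Ev u x := by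
  by_contra ne
  exact s1 (h.free hu ⟨hx, c, ne⟩ ⟨s2, su⟩ e)

variable (hx : x ∈ T) (sx : s * x * s⁻¹ = x⁻¹)
include hx sx

theorem nsx : ¬ Commute s x := fun c =>
  ne_inv3 (h.cube x hx) (h.ne x hx) (by rw [← sx, cfix c])

theorem nc : ¬ Commute u x := fun c =>
  h.nsx s2 s1 hu su hx sx ((h.nc0 s2 s1 hu su hx (Or.inr sx) c).comm su)

theorem nev : ¬ Ev x (u * x * u⁻¹) := fun e =>
  h.nc s2 s1 hu su hx sx (comm_of_ev (h.cube u hu) (h.cube x hx) e)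

theorem sx2 : s * (u * x * u⁻¹) * s⁻¹ = (u * x * u⁻¹)⁻¹ := by
  calc _ = (s * u * s⁻¹) * (s * x * s⁻¹) * (s * u * s⁻¹)⁻¹ := by group
    _ = _ := by rw [cfix su, sx]; group

theorem u3 (x : G) : u * (u * (u * x * u⁻¹) * u⁻¹) * u⁻¹ = x := by
  calc _ = u ^ 3 * x * (u ^ 3)⁻¹ := by simp only [pow_succ, pow_zero]; group
    _ = x := by rw [h.cube u hu]; simp

theorem nc2 : ¬ Commute x (u * x * u⁻¹) := fun c => by
  have h2 := h.conj x hx u
  have h3 := h.conj _ h2 u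
  have s2' := h.sx2 s2 s1 hu su hx sx
  have c2 := cconj c u
  have c3 := cconj c2 u
  have ne3 := h.nev s2 s1 hu su h3 (h.sx2 s2 s1 hu su h2 s2')
  rw [h.u3 s2 s1 hu su hx sx] at c3 ne3
  have n2 : Nb T x (u * x * u⁻¹) := ⟨h2, c, h.nev s2 s1 hu su hx sx⟩
  obtain ⟨v, hv, e⟩ := (h.part hx n2).1 _ ⟨h3, c3.symm, fun e => ne3 e.symm⟩
  have v1 : v ≠ 1 := by
    rintro rfl
    exact h.nev s2 s1 hu su h2 s2' (by simpa using e)
  exact h.ntri h2 (n2.symm hx) hv v1 (e.symm.comm c2)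

theorem dist2 : ∃ a, Nb T x a ∧ ∃ w, Vx a w ∧ w ≠ 1 ∧ Ev (w * x * w⁻¹) (u * x * u⁻¹) := by
  obtain ⟨y, n⟩ := h.exists_nb hx
  have h2 := h.conj x hx u
  have s2' := h.sx2 s2 s1 hu su hx sx
  have ne := h.nev s2 s1 hu su hx sx
  rcases (h.part hx n).2 _ h2 with k | k | k | ⟨v, hv, v1, e⟩
  · exact absurd k ne
  · exact absurd k.2.1 (h.nc2 s2 s1 hu su hx sx)
  · exact k
  exfalso
  have si : s⁻¹ = s := inv_eq_of_mul_eq_one_right s2
  have c1 : Commute (s * v) (u * x * u⁻¹) := of_fix (by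
    calc _ = s * (v * (u * x * u⁻¹) * v⁻¹) * s⁻¹ := by group
      _ = _ := by rw [e, inv_conj s2'])
  have k1 := h.vmul hx (hv.nrm (Or.inr sx)) hv
  have k2 : s * v * (s * v) = 1 := by
    by_contra c
    rw [si, mul_assoc (s * v)] at k1
    exact ne (h.uniq hx h2 c k1 (c1.mul_left c1))
  have k3 : Commute s v := by
    have := inv_eq_of_mul_eq_one_right k2
    rw [mul_inv_rev, si, hv.inv] at this
    exact this.symm
  have k4 : s * v ≠ 1 := fun c => h.nsx s2 s1 hu su hx sx (by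
    rw [eq_inv_of_mul_eq_one_left c]; exact hv.2.inv_left)
  have k5 : u * v * u⁻¹ = s * v := by
    by_contra c
    refine h.nsx s2 s1 hu su h2 s2' (h.vmax h2 (hv.conj u) ⟨k2, c1⟩ (cne v1 u) k4 c s2 ?_
      ((Commute.refl s).mul_right k3))
    have := cconj k3 u
    rwa [cfix su.symm] at this
  have k6 := h.uniq hu (h.conj u hu v) s1 ⟨s2, su⟩ (by
    have := cconj su v
    rwa [cfix k3.symm] at this)
  have k7 : s = u * (v * u * v⁻¹)⁻¹ := by
    calc s = (s * v) * v⁻¹ := by group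
      _ = _ := by rw [← k5]; group
  rcases k6 with k6 | k6
  · exact s1 (by rw [k7, k6]; group)
  · rw [k6, inv_inv, r3 (h.cube u hu)] at k7
    rw [k7] at s2
    exact ne_inv3 (h.cube u hu) (h.ne u hu) (by
      rw [eq_inv_iff_mul_eq_one, ← inv_inj, mul_inv_rev, s2, inv_one])

variable (n : Nb T x a) (hw : Vx a w) (w1 : w ≠ 1) (e : Ev (w * x * w⁻¹) (u * x * u⁻¹))
include n hw w1 e

theorem ca2 : Commute a (u * x * u⁻¹) := by
  have := cconj n.2.1.symm w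
  rw [cfix hw.2] at this
  exact e.comm this

theorem sa : Ev a (s * a * s⁻¹) := by
  have c1 := cconj n.2.1.symm s
  have c2 := cconj (h.ca2 s2 s1 hu su hx sx n hw w1 e) s
  rw [sx] at c1
  rw [h.sx2 s2 s1 hu su hx sx] at c2
  exact h.cn hx n hw w1 (h.conj a n.1 s) (by simpa using c1.inv_right)
    (e.symm.comm (by simpa using c2.inv_right))

theorem nua : ¬ Ev a (u * a * u⁻¹) := fun k =>
  h.nc s2 s1 hu su hx sx ((h.nc0 s2 s1 hu su n.1 (h.sa s2 s1 hu su hx sx n hw w1 e)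
    (comm_of_ev (h.cube u hu) (h.cube a n.1) k)).symm.comm n.2.1).symm

omit n hw w1 e in
theorem lemO : (x * (u * x * u⁻¹)) ^ 2 = 1 := by
  obtain ⟨a, n, w, hw, w1, e⟩ := h.dist2 s2 s1 hu su hx sx
  have k1 : Vx a (x * (w * x * w⁻¹)⁻¹) := by
    have := h.vmul n.1 (hw.cm n.2.1) hw.inv'
    simpa [mul_assoc] using this
  rcases id e with e' | e'
  swap
  · rw [e', pow_two]; exact k1.1
  exfalso
  rw [← e'] at k1
  have h2 := h.conj x hx u
  have α1 : x * (u * x * u⁻¹)⁻¹ ≠ 1 := fun c =>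
    h.nev s2 s1 hu su hx sx (Or.inl (mul_inv_eq_one.1 c).symm)
  have k2 := k1.conj u
  have k3 := (k2.conj u).inv
  have k4 : x * (u * x * u⁻¹)⁻¹ * (u * (x * (u * x * u⁻¹)⁻¹) * u⁻¹) =
      (u * (u * (x * (u * x * u⁻¹)⁻¹) * u⁻¹) * u⁻¹)⁻¹ := by
    calc _ = (u * (u * (u * x * u⁻¹) * u⁻¹) * u⁻¹) * (u * (u * x * u⁻¹) * u⁻¹)⁻¹ := by
          rw [h.u3 s2 s1 hu su hx sx]
          simp only [mul_assoc, mul_inv_rev, inv_inv, inv_mul_cancel_left]
      _ = _ := by simp only [mul_assoc, mul_inv_rev, inv_inv, inv_mul_cancel_left]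
  have k5 : Commute (x * (u * x * u⁻¹)⁻¹) (u * (x * (u * x * u⁻¹)⁻¹) * u⁻¹) := by
    have := congrArg (·⁻¹) k4
    simp only [inv_inv] at this
    rw [mul_inv_rev, k1.inv, k2.inv, ← k3, ← k4] at this
    exact this.symm
  have na : Nb T a (u * x * u⁻¹) := ⟨h2, h.ca2 s2 s1 hu su hx sx n hw w1 e, fun c =>
    h.nc2 s2 s1 hu su hx sx (c.comm n.2.1)⟩
  exact h.nua s2 s1 hu su hx sx n hw w1 e (h.star n.1 (h.conj a n.1 u) na
    (h.nb_conj (n.symm hx) u) k1 α1 k2 (cne α1 u) k5)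

theorem far : ∃ v, Vx a v ∧ v ≠ 1 ∧
    v * (u * (u * x * u⁻¹) * u⁻¹) * v⁻¹ = (u * (u * x * u⁻¹) * u⁻¹)⁻¹ := by
  have h2 := h.conj x hx u
  have h3 := h.conj _ h2 u
  have s2' := h.sx2 s2 s1 hu su hx sx
  have s3' := h.sx2 s2 s1 hu su h2 s2'
  have n23 := h.nc2 s2 s1 hu su h2 s2'
  have n31 := h.nc2 s2 s1 hu su h3 s3'
  rw [h.u3 s2 s1 hu su hx sx] at n31
  have sa := h.sa s2 s1 hu su hx sx n hw w1 e
  have pt := h.part n.1 (n.symm hx)
  rcases pt.2 _ h3 with k | k | ⟨y, ny, w', hw', w1', e'⟩ | k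
  · exact absurd (k.comm n.2.1).symm n31
  · refine absurd (h.cn hx n hw w1 (h.conj a n.1 u) ?_ (e.symm.comm (cconj n.2.1.symm u)))
      (h.nua s2 s1 hu su hx sx n hw w1 e)
    have := cconj k.2.1 u
    rwa [h.u3 s2 s1 hu su hx sx] at this
  swap
  · exact k
  exfalso
  have y3 : Commute y (u * (u * x * u⁻¹) * u⁻¹) := by
    have := cconj ny.2.1.symm w'
    rw [cfix hw'.2] at this
    exact e'.comm this
  have sy : Ev y (s * y * s⁻¹) := by
    have c2 := cconj y3 s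
    rw [s3'] at c2
    exact h.cn n.1 ny hw' w1' (h.conj y ny.1 s) (sa.symm.comm (cconj ny.2.1.symm s))
      (e'.symm.comm (by simpa using c2.inv_right))
  have fixv : ∀ v z, Vx a v → Ev (v * x * v⁻¹) z → Ev z (s * z * s⁻¹) → Commute s v := by
    intro v z hv e1 e2
    have e3 := (e1.trans (e2.trans (e1.conj s).symm)).conj v⁻¹
    have e4 : v⁻¹ * (s * (v * x * v⁻¹) * s⁻¹) * v⁻¹⁻¹ =
        (v⁻¹ * (s * v * s⁻¹) * x * (v⁻¹ * (s * v * s⁻¹))⁻¹)⁻¹ := by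
      calc _ = v⁻¹ * (s * v * s⁻¹) * (s * x * s⁻¹) * (v⁻¹ * (s * v * s⁻¹))⁻¹ := by group
        _ = _ := by rw [sx]; group
    rw [e4, show v⁻¹ * (v * x * v⁻¹) * v⁻¹⁻¹ = x by group] at e3
    have := h.free n.1 (n.symm hx) (h.vmul n.1 hv.inv' (hv.nrm sa))
      (e3.trans (Or.inr (inv_inv _).symm))
    exact of_fix (inv_mul_eq_one.1 this).symm
  obtain ⟨v, hv, ev⟩ := pt.1 y ny
  have v1 : v ≠ 1 := by
    rintro rfl
    exact n31 (Ev.comm (Ev.symm (by simpa using ev)) y3.symm)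
  have vw : v ≠ w := by
    rintro rfl
    exact n23 ((ev.symm.trans e).comm y3.symm).symm
  have c := h.vmax n.1 hv hw v1 w1 vw s2 (fixv v y hv ev sy) (fixv w _ hw e (Or.inr s2'))
  exact h.nc s2 s1 hu su hx sx ((h.uniq hu n.1 s1 ⟨s2, su⟩ c).symm.comm n.2.1).symm

end O

theorem gens : ∃ x : ℕ → G, (∀ i < 5, x i ^ 3 = 1) ∧
    (∀ i < 5, ∀ j < 5, i ≠ j → (x i * x j) ^ 2 = 1) ∧ x 0 ≠ 1 := by
  obtain ⟨x0, h0⟩ : T.Nonempty := Set.nonempty_of_ncard_ne_zero (by rw [h.card]; omega)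
  obtain ⟨V, cV, hV⟩ := h.four x0 h0
  obtain ⟨s, hs, s1⟩ : ∃ v ∈ V, v ≠ 1 := by
    by_contra c
    push Not at c
    rw [(eq_bot_iff_forall V).2 c, card_bot] at cV
    omega
  have s2 := ((hV s).1 hs).1
  obtain ⟨x, hx, sx⟩ := h.exi s s2 s1
  obtain ⟨u, hu, su⟩ := h.exu s s2 s1
  obtain ⟨a, n, w, hw, w1, e⟩ := h.dist2 s2 s1 hu su hx sx
  obtain ⟨v, hv, v1, vx⟩ := h.far s2 s1 hu su hx sx n hw w1 e
  have R : ∀ {p q : G} (g : G), (p * q) ^ 2 = 1 → (g * p * g⁻¹ * (g * q * g⁻¹)) ^ 2 = 1 := by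
    intro p q g k
    calc _ = g * (p * q) ^ 2 * g⁻¹ := by simp only [pow_two]; group
      _ = 1 := by rw [k]; group
  have h2 := h.conj x hx u
  have h3 := h.conj _ h2 u
  have r12 := h.lemO s2 s1 hu su hx sx
  have r23 := R u r12
  have r31 := R u r23
  rw [h.u3 s2 s1 hu su hx sx] at r31
  have r34 := h.lemO hv.1 v1 n.1 hv.2 h3 vx
  have r45 := R a r34
  have r53 := R a r45
  rw [h.u3 hv.1 v1 n.1 hv.2 h3 vx] at r53
  have f1 := cfix n.2.1.symm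
  have f2 := cfix (h.ca2 s2 s1 hu su hx sx n hw w1 e)
  have r41 := R a r31
  have r24 := R a r23
  rw [f1] at r41
  rw [f2] at r24
  have r51 := R a r41
  have r25 := R a r24
  rw [f1] at r51
  rw [f2] at r25
  have h4 := h.conj _ h3 a
  have h5 := h.conj _ h4 a
  generalize u * x * u⁻¹ = x2 at *
  generalize u * x2 * u⁻¹ = x3 at *
  generalize a * x3 * a⁻¹ = x4 at *
  generalize a * x4 * a⁻¹ = x5 at *
  refine ⟨fun i => match i with | 0 => x | 1 => x2 | 2 => x3 | 3 => x4 | _ => x5, fun i hi => ?_,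
    fun i hi j hj ne => ?_, h.ne x hx⟩
  · interval_cases i <;> apply h.cube <;> assumption
  · interval_cases i <;> interval_cases j <;>
      first | exact absurd rfl ne | assumption | (apply r2'; assumption)

theorem iso (hG : Nat.card G = 2520) : Nonempty (G ≃* alternatingGroup (Fin 7)) := by
  obtain ⟨x, h3, h2, h1⟩ := h.gens
  exact iso_of_gens hG x h3 h2 h1

end Cx

end Cfsg.Agent.C2.Sev
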