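import Mathlib

/-!
# S1170: an odd group of semilinear maps of a plane in characteristic two (part C1a)
-/

set_option autoImplicit false
set_option linter.unusedSectionVars false

namespace Cfsg.Agent.C2.Col

variable {F : Type*} [Field F] [CharP F 2] {D : Type*} [Group D] [Finite D]

theorem fix_of_sq (hodd : ∀ d : D, Odd (orderOf d)) {V : Type*} (α : D →* Equiv.Perm V)
    (P : V → Prop) (k : D) (u : V) (h0 : P u) (h : ∀ v, P v → P (α k (α k v))) : P (α k u) := by
  obtain ⟨j, hj⟩ := hodd k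
  have h1 : ∀ i : ℕ, P (α ((k * k) ^ i) u) := by
    intro i
    induction i with
    | zero => simpa using h0
    | succ i ih =>
      rw [pow_succ', map_mul, map_mul]
      exact h _ ih
  have h2 : (k * k) ^ (j + 1) = k := by
    rw [← pow_two, ← pow_mul, show 2 * (j + 1) = orderOf k + 1 by omega, pow_succ,
      pow_orderOf_eq_one, one_mul]
  have := h1 (j + 1)
  rwa [h2] at this

theorem two_v {V : Type*} [AddCommGroup V] [Module F V] (v : V) : v + v = 0 := by
  rw [← two_smul F v]
  have : (2 : F) = 0 := CharP.cast_eq_zero F 2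
  rw [this, zero_smul]

/-- A fixed point free semilinear map of prime order that fixes a line is linear. -/
theorem lin_of_prime {V : Type*} [AddCommGroup V] [Module F V] (α : D →* Equiv.Perm V)
    (hadd : ∀ d u v, α d (u + v) = α d u + α d v) {y : D} (hy : (orderOf y).Prime)
    {ρ : F ≃+* F} (hρ : ∀ (c : F) u, α y (c • u) = ρ c • α y u) {u : V} (hu : u ≠ 0) {e : F}
    (he : α y u = e • u) (hfix : ∀ v, α y v = v → v = 0) : ρ = 1 := by
  classical
  by_contra hne
  have h0 : ∀ d, α d 0 = 0 := fun d => by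
    have := hadd d 0 0
    rw [add_zero] at this
    exact left_eq_add.1 this
  have hn : ∀ i : ℕ, ∃ n : F, (i = 0 → n = 1) ∧ ∀ c : F, α (y ^ i) (c • u) = ((ρ ^ i) c * n) • u := by
    intro i
    induction i with
    | zero => exact ⟨1, fun _ => rfl, fun c => by simp⟩
    | succ i ih =>
      obtain ⟨n, -, hn⟩ := ih
      refine ⟨ρ n * e, fun h => absurd h (Nat.succ_ne_zero i), fun c => ?_⟩
      rw [pow_succ', map_mul, Equiv.Perm.mul_apply, hn, hρ, he, smul_smul, map_mul, pow_succ',
        mul_assoc]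
      rfl
  choose n hn0 hn using hn
  have hr : ρ ^ orderOf y = 1 := by
    have h1 := hn (orderOf y) 1
    rw [pow_orderOf_eq_one, map_one, map_one, one_mul, Equiv.Perm.one_apply] at h1
    have h2 : n (orderOf y) = 1 := (smul_left_injective F hu h1).symm
    ext c
    have h3 := hn (orderOf y) c
    rw [pow_orderOf_eq_one, map_one, h2, mul_one, Equiv.Perm.one_apply] at h3
    exact (smul_left_injective F hu h3).symm
  haveI := Fact.mk hy
  have ho : orderOf ρ = orderOf y := orderOf_eq_prime hr hne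
  have hsum : ∀ c : F, ∑ i ∈ Finset.range (orderOf y), (ρ ^ i) c * n i = 0 := by
    intro c
    have h1 : ∀ s : Finset ℕ, ∀ f : ℕ → V, α y (∑ i ∈ s, f i) = ∑ i ∈ s, α y (f i) := by
      intro s f
      induction s using Finset.induction_on with
      | empty => simpa using h0 y
      | insert a s ha ih => rw [Finset.sum_insert ha, Finset.sum_insert ha, hadd, ih]
    have h2 := hfix (∑ i ∈ Finset.range (orderOf y), α (y ^ i) (c • u)) (by
      rw [h1]
      have h3 := Finset.sum_range_succ' (fun i => α (y ^ i) (c • u)) (orderOf y)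
      rw [Finset.sum_range_succ, pow_orderOf_eq_one, pow_zero] at h3
      rw [add_right_cancel h3]
      refine Finset.sum_congr rfl fun i _ => ?_
      rw [pow_succ', map_mul, Equiv.Perm.mul_apply])
    simp only [hn, ← Finset.sum_smul] at h2
    exact (smul_eq_zero.1 h2).resolve_right hu
  let f : Fin (orderOf y) → (F →* F) := fun i => ((ρ ^ (i : ℕ) : F ≃+* F) : F →+* F).toMonoidHom
  have hf : Function.Injective f := by
    intro i j hij
    have : ρ ^ (i : ℕ) = ρ ^ (j : ℕ) := by
      ext c; exact DFunLike.congr_fun hij c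
    exact Fin.ext (pow_injOn_Iio_orderOf (by rw [ho]; exact i.2) (by rw [ho]; exact j.2) this)
  have hli := (linearIndependent_monoidHom F F).comp f hf
  have := Fintype.linearIndependent_iff.1 hli (fun i => n i) (by
    ext c
    have := hsum c
    rw [Finset.sum_range] at this
    simpa [f, mul_comm] using this) ⟨0, hy.pos⟩
  simp only [hn0 0 rfl] at this
  exact one_ne_zero this

theorem core [Finite F] (hodd : ∀ d : D, Odd (orderOf d)) (α : D →* Equiv.Perm (Fin 2 → F))
    (hadd : ∀ d u v, α d (u + v) = α d u + α d v)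
    (hsemi : ∀ d, ∃ ρ : F ≃+* F, ∀ (c : F) u, α d (c • u) = ρ c • α d u) (I : Set D)
    (hpow : ∀ d ∈ I, ∀ k : ℕ, d ^ k ∈ I)
    (htr : ∀ u v, u ≠ 0 → v ≠ 0 → ∃ d ∈ I, α d u = v)
    (hfix : ∀ y ∈ I, y ≠ 1 → ∀ v, α y v = v → v = 0)
    (hsc : ∀ y ∈ I, y ≠ 1 → ∀ c : F, (∀ u, α y u = c • u) → False)
    (hq : 4 ≤ Nat.card F) : False := by
  classical
  obtain ⟨c0, hc0, hc1⟩ : ∃ c : F, c ≠ 0 ∧ c ≠ 1 := by
    by_contra hc
    push Not at hc
    have : (Set.univ : Set F) ⊆ {0, 1} := fun c _ => by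
      by_cases h : c = 0
      · exact Or.inl h
      · exact Or.inr (hc c h)
    have h1 := Set.ncard_le_ncard this
    rw [Set.ncard_univ] at h1
    have := (Set.ncard_pair (zero_ne_one (α := F))).le
    omega
  set u : Fin 2 → F := ![1, 0] with hu
  have hu0 : u ≠ 0 := fun h => by simpa [hu] using congrFun h 0
  obtain ⟨d0, hd0, hd0u⟩ := htr u (c0 • u) hu0 (smul_ne_zero hc0 hu0)
  have hd1 : d0 ≠ 1 := by
    rintro rfl
    rw [map_one, Equiv.Perm.one_apply] at hd0u
    exact hc1 (smul_left_injective F hu0 (by rw [← hd0u, one_smul] : c0 • u = (1 : F) • u))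
  have hline : ∀ d : D, (∃ e : F, α d u = e • u) → ∀ k : ℕ, ∃ e : F, α (d ^ k) u = e • u := by
    rintro d ⟨e, he⟩ k
    obtain ⟨ρ, hρ⟩ := hsemi d
    induction k with
    | zero => exact ⟨1, by simp⟩
    | succ k ih =>
      obtain ⟨e', he'⟩ := ih
      exact ⟨ρ e' * e, by rw [pow_succ', map_mul, Equiv.Perm.mul_apply, he', hρ, he, smul_smul]⟩
  obtain ⟨r, hr, hrd⟩ := Nat.exists_prime_and_dvd (n := orderOf d0) (by simpa using hd1)
  set y := d0 ^ (orderOf d0 / r) with hy
  have hyo : orderOf y = r := by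
    rw [hy, orderOf_pow_of_dvd (Nat.div_pos (Nat.le_of_dvd (orderOf_pos d0) hrd) hr.pos).ne'
      (Nat.div_dvd_of_dvd hrd), Nat.div_div_self hrd (orderOf_pos d0).ne']
  have hyI : y ∈ I := hpow _ hd0 _
  have hy1 : y ≠ 1 := by
    intro h; rw [h, orderOf_one] at hyo; exact hr.one_lt.ne hyo
  obtain ⟨e1, he1⟩ := hline d0 ⟨c0, hd0u⟩ (orderOf d0 / r)
  rw [← hy] at he1
  obtain ⟨ρ0, hρ0⟩ := hsemi y
  have hρ1 := lin_of_prime α hadd (hyo ▸ hr) hρ0 hu0 he1 (hfix y hyI hy1)
  have hlin : ∀ (c : F) v, α y (c • v) = c • α y v := fun c v => by rw [hρ0, hρ1]; rfl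
  -- second eigenvector
  set w0 : Fin 2 → F := ![0, 1] with hw0
  have hdec : ∀ v : Fin 2 → F, v = v 0 • u + v 1 • w0 := fun v => by
    ext i; fin_cases i <;> simp [hu, hw0]
  set β := α y w0 0 with hβ
  set c1 := α y w0 1 with hc1'
  have hyw0 : α y w0 = β • u + c1 • w0 := hdec _
  have hne : c1 ≠ e1 := by
    intro h
    have h2 : ∀ v, α y (α y v) = (e1 * e1) • v := by
      intro v
      have h3 : α y (α y u) = (e1 * e1) • u := by rw [he1, hlin, he1, smul_smul]
      have h4 : α y (α y w0) = (e1 * e1) • w0 := by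
        rw [hyw0, hadd, hlin, hlin, he1, hyw0, h]
        have := two_v (F := F) ((β * e1) • u)
        linear_combination (norm := module) this
      rw [hdec v, hadd, hlin, hlin, hadd, hlin, hlin, h3, h4]
      module
    obtain ⟨j, hj⟩ := hodd y
    have h6 : ∀ i : ℕ, ∀ v, α ((y * y) ^ i) v = (e1 * e1) ^ i • v := by
      intro i
      induction i with
      | zero => simp
      | succ i ih =>
        intro v
        rw [pow_succ, map_mul, map_mul, Equiv.Perm.mul_apply, Equiv.Perm.mul_apply, h2, ih,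
          smul_smul, pow_succ]
    have h7 : (y * y) ^ (j + 1) = y := by
      rw [← pow_two, ← pow_mul, show 2 * (j + 1) = orderOf y + 1 by omega, pow_succ,
        pow_orderOf_eq_one, one_mul]
    exact hsc y hyI hy1 _ (fun v => by have := h6 (j + 1) v; rwa [h7] at this)
  have hne' : c1 - e1 ≠ 0 := sub_ne_zero.2 hne
  set w : Fin 2 → F := w0 + (β / (c1 - e1)) • u with hw
  have hyw : α y w = c1 • w := by
    rw [hw, hadd, hlin, he1, hyw0]
    have : β + β / (c1 - e1) * e1 = c1 * (β / (c1 - e1)) := by field_simp; ring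
    linear_combination (norm := module) this • u
  have hind : ∀ a b : F, a • w + b • u = 0 → a = 0 ∧ b = 0 := by
    intro a b h
    have h1 : a = 0 := by simpa [hw, hu, hw0] using congrFun h 1
    rw [h1, zero_smul, zero_add] at h
    exact ⟨h1, (smul_eq_zero.1 h).resolve_right hu0⟩
  have hspan : ∀ v : Fin 2 → F, ∃ a b : F, v = a • w + b • u := fun v =>
    ⟨v 1, v 0 - v 1 * (β / (c1 - e1)), by
      conv_lhs => rw [hdec v]
      rw [hw]; module⟩
  have hw0' : w ≠ 0 := fun h => one_ne_zero (hind 1 0 (by rw [h]; simp)).1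
  obtain ⟨d, -, hd⟩ := htr u w hu0 hw0'
  obtain ⟨ρ, hρ⟩ := hsemi d
  set g := d * y * d⁻¹ with hg
  have hgd : ∀ v, α g (α d v) = α d (α y v) := fun v => by
    rw [hg, map_mul, map_mul, map_inv]; simp
  have hglin : ∀ (c : F) v, α g (c • v) = c • α g v := by
    intro c v
    obtain ⟨v', rfl⟩ := (α d).surjective v
    obtain ⟨c', rfl⟩ := ρ.surjective c
    rw [← hρ, hgd, hgd, hlin, hρ]
  have hgw : α g w = ρ e1 • w := by rw [← hd, hgd, he1, hρ]
  obtain ⟨b2, e2, hgu⟩ := hspan (α g u)
  have hc1ne : c1 ≠ 0 := by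
    intro h
    rw [h, zero_smul] at hyw
    have h0 : α y 0 = 0 := by have := hlin 0 u; simpa using this
    exact hw0' ((α y).injective (hyw.trans h0.symm))
  have he1ne : ρ e1 ≠ 0 := by
    rw [map_ne_zero_iff ρ ρ.injective]
    intro h
    rw [h, zero_smul] at he1
    have h0 : α y 0 = 0 := by have := hlin 0 u; simpa using this
    exact hu0 ((α y).injective (he1.trans h0.symm))
  have hb2 : b2 = 0 := by
    set γ := b2 * (c1 - e1) / (c1 * ρ e1) with hγ
    set k := (g * y)⁻¹ * (y * g) with hk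
    have hkk : ∀ v v', α g (α y v') = α y (α g v) → α k v = v' := by
      intro v v' h
      rw [hk, map_mul, map_inv, map_mul α g y, map_mul α y g, Equiv.Perm.mul_apply,
        Equiv.Perm.inv_eq_iff_eq]
      exact h.symm
    have k1 : α k (γ • w) = γ • w := hkk _ _ (by
      rw [hlin, hglin, hglin, hlin, hyw, hgw, hglin, hlin, hgw, hyw]; module)
    have k2 : α k u = u + γ • w := hkk _ _ (by
      rw [hadd, hlin, he1, hyw, hadd, hglin, hglin, hglin, hgw, hgu, hadd, hlin, hlin, hyw, he1]
      have : e1 * b2 + γ * c1 * ρ e1 = b2 * c1 := by rw [hγ]; field_simp; ring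
      linear_combination (norm := module) this • w)
    have k3 : α k u = u := fix_of_sq hodd α (fun v => v = u) k u rfl (by
      rintro v rfl
      rw [k2, hadd, k1, k2, add_assoc, two_v (F := F), add_zero])
    rw [k3] at k2
    have h1 : γ = 0 := (smul_eq_zero.1 (left_eq_add.1 k2)).resolve_right hw0'
    rw [hγ, div_eq_zero_iff] at h1
    rcases h1 with h1 | h1
    · exact (mul_eq_zero.1 h1).resolve_right hne'
    · exact absurd h1 (mul_ne_zero hc1ne he1ne)
  rw [hb2, zero_smul, zero_add] at hgu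
  obtain ⟨a, b, hab⟩ := hspan (α d w)
  have ha : a = 0 := by
    have h1 : α g (α d w) = ρ c1 • α d w := by rw [hgd, hyw, hρ]
    rw [hab, hadd, hglin, hglin, hgw, hgu] at h1
    have h2 := (hind (a * (ρ e1 - ρ c1)) (b * (e2 - ρ c1)) (by
      linear_combination (norm := module) h1)).1
    refine (mul_eq_zero.1 h2).resolve_right fun h => hne ?_
    exact (ρ.injective (sub_eq_zero.1 h)).symm
  rw [ha, zero_smul, zero_add] at hab
  obtain ⟨c, hc⟩ := fix_of_sq hodd α (fun v => ∃ c : F, v = c • u) d u ⟨1, by simp⟩ (by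
    rintro v ⟨c, rfl⟩
    exact ⟨ρ (ρ c) * b, by rw [hρ, hρ, hd, hab, smul_smul]⟩)
  rw [hd] at hc
  exact one_ne_zero (hind 1 (-c) (by rw [hc]; module)).1

end Cfsg.Agent.C2.Col
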