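import Mathlib

/-!
# S1170: elations of the plane over a field and recognition of `PSL₃` (part C1)
-/

set_option autoImplicit false
set_option linter.unusedSectionVars false

namespace Cfsg.Agent.C2.Pl

open Matrix
open scoped MatrixGroups

variable {F : Type*} [Field F]

/-- The determinant of three vectors. -/
def det3 (u v c : Fin 3 → F) : F :=
  u 0 * (v 1 * c 2 - v 2 * c 1) - u 1 * (v 0 * c 2 - v 2 * c 0) + u 2 * (v 0 * c 1 - v 1 * c 0)

theorem dot3 (m u : Fin 3 → F) : m ⬝ᵥ u = m 0 * u 0 + m 1 * u 1 + m 2 * u 2 := by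
  simp [dotProduct, Fin.sum_univ_three]

theorem ext3 {u v : Fin 3 → F} (h0 : u 0 = v 0) (h1 : u 1 = v 1) (h2 : u 2 = v 2) : u = v := by
  ext i; fin_cases i <;> assumption

theorem zero_of_det {m u v c : Fin 3 → F} (h1 : m ⬝ᵥ u = 0) (h2 : m ⬝ᵥ v = 0) (h3 : m ⬝ᵥ c = 0)
    (hd : det3 u v c ≠ 0) : m = 0 := by
  rw [dot3] at h1 h2 h3
  refine ext3 ?_ ?_ ?_ <;> apply mul_left_cancel₀ hd <;> simp only [det3, Pi.zero_apply]
  · linear_combination (v 1 * c 2 - v 2 * c 1) * h1 + (c 1 * u 2 - c 2 * u 1) * h2 +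
      (u 1 * v 2 - u 2 * v 1) * h3
  · linear_combination (v 2 * c 0 - v 0 * c 2) * h1 + (c 2 * u 0 - c 0 * u 2) * h2 +
      (u 2 * v 0 - u 0 * v 2) * h3
  · linear_combination (v 0 * c 1 - v 1 * c 0) * h1 + (c 0 * u 1 - c 1 * u 0) * h2 +
      (u 0 * v 1 - u 1 * v 0) * h3

theorem exists_det {l c u : Fin 3 → F} (hc : c ≠ 0) (hlc : l ⬝ᵥ c = 0) (hu : l ⬝ᵥ u ≠ 0) :
    ∃ w, l ⬝ᵥ w ≠ 0 ∧ det3 u w c ≠ 0 := by
  obtain ⟨d, hd⟩ : ∃ d, det3 u d c ≠ 0 := by
    by_contra hn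
    push Not at hn
    have a0 := hn ![1, 0, 0]
    have a1 := hn ![0, 1, 0]
    have a2 := hn ![0, 0, 1]
    simp [det3] at a0 a1 a2
    rw [dot3] at hlc hu
    refine hc (ext3 ?_ ?_ ?_) <;> apply mul_left_cancel₀ hu <;> simp only [Pi.zero_apply]
    · linear_combination u 0 * hlc + l 1 * a2 - l 2 * a1
    · linear_combination u 1 * hlc - l 0 * a2 + l 2 * a0
    · linear_combination u 2 * hlc + l 0 * a1 - l 1 * a0
  by_cases h : l ⬝ᵥ d = 0
  · refine ⟨d + u, by rwa [dotProduct_add, h, zero_add], ?_⟩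
    convert hd using 1
    simp only [det3, Pi.add_apply]; ring
  · exact ⟨d, h, hd⟩

theorem span_of_det {u w c v : Fin 3 → F} (hd : det3 u w c ≠ 0) (h : det3 u v c = 0) :
    ∃ a b : F, v = a • u + b • c := by
  refine ⟨det3 v w c / det3 u w c, det3 u w v / det3 u w c, ?_⟩
  refine ext3 ?_ ?_ ?_ <;> apply mul_left_cancel₀ hd <;>
    simp only [Pi.add_apply, Pi.smul_apply, smul_eq_mul] <;> field_simp <;> simp only [det3] at h ⊢
  · linear_combination w 0 * h
  · linear_combination w 1 * h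
  · linear_combination w 2 * h

/-- A collineation with axis `l` and a centre `c` on it is a transvection. -/
theorem elation (σ : (Fin 3 → F) → Fin 3 → F) {l c : Fin 3 → F} (hl : l ≠ 0) (hc : c ≠ 0)
    (hlc : l ⬝ᵥ c = 0) (hfix : ∀ u ≠ 0, l ⬝ᵥ u = 0 → ∃ a : F, a ≠ 0 ∧ σ u = a • u)
    (hoff : ∀ u, l ⬝ᵥ u ≠ 0 → l ⬝ᵥ σ u ≠ 0)
    (hcen : ∀ u ≠ 0, ∃ m ≠ 0, m ⬝ᵥ c = 0 ∧ m ⬝ᵥ u = 0 ∧ m ⬝ᵥ σ u = 0)
    (hcol : ∀ u ≠ 0, ∀ v ≠ 0, ∃ m ≠ 0, ∀ a b : F, a • u + b • v ≠ 0 →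
      m ⬝ᵥ σ (a • u + b • v) = 0) :
    ∃ k : F, ∀ u ≠ 0, ∃ a : F, σ u = a • (u + (l ⬝ᵥ u) • k • c) := by
  have hne : ∀ u, l ⬝ᵥ u ≠ 0 → u ≠ 0 := fun u hu h => hu (by rw [h, dotProduct_zero])
  have s1 : ∀ u, ∃ k a : F, l ⬝ᵥ u ≠ 0 → a ≠ 0 ∧ σ u = a • (u + (l ⬝ᵥ u) • k • c) := by
    intro u
    by_cases hu : l ⬝ᵥ u = 0
    · exact ⟨0, 0, fun h => absurd hu h⟩
    obtain ⟨m, hm, m1, m2, m3⟩ := hcen u (hne u hu)
    obtain ⟨w, -, hw⟩ := exists_det hc hlc hu
    obtain ⟨a, b, hab⟩ := span_of_det hw (v := σ u)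
      (by by_contra h; exact hm (zero_of_det m2 m3 m1 h))
    have ha : a ≠ 0 := by
      rintro rfl
      refine hoff u hu ?_
      rw [hab, zero_smul, zero_add, dotProduct_smul, hlc, smul_zero]
    refine ⟨b / (a * l ⬝ᵥ u), a, fun _ => ⟨ha, ?_⟩⟩
    rw [hab, smul_add, smul_smul, smul_smul]
    congr 2
    field_simp
  choose k a hk using s1
  have s2 : ∀ u v, l ⬝ᵥ u ≠ 0 → l ⬝ᵥ v ≠ 0 → det3 u v c ≠ 0 → k u = k v := by
    intro u v hu hv hd
    obtain ⟨m, hm, hm'⟩ := hcol u (hne u hu) v (hne v hv)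
    have e1 := hm' 1 0 (by simpa using hne u hu)
    have e2 := hm' 0 1 (by simpa using hne v hv)
    have hy : (l ⬝ᵥ v) • u + (-(l ⬝ᵥ u)) • v ≠ 0 := by
      intro h
      apply hd
      apply mul_left_cancel₀ hv
      have h0 := congrFun h 0
      have h1 := congrFun h 1
      have h2 := congrFun h 2
      simp only [Pi.add_apply, Pi.smul_apply, smul_eq_mul, Pi.zero_apply] at h0 h1 h2
      simp only [det3]
      linear_combination (v 1 * c 2 - v 2 * c 1) * h0 - (v 0 * c 2 - v 2 * c 0) * h1 +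
        (v 0 * c 1 - v 1 * c 0) * h2
    have e3 := hm' _ _ hy
    obtain ⟨b, hb, hb'⟩ := hfix _ hy (by
      rw [dotProduct_add, dotProduct_smul, dotProduct_smul, smul_eq_mul, smul_eq_mul]; ring)
    rw [one_smul, zero_smul, add_zero, (hk u hu).2, dotProduct_smul, smul_eq_mul,
      mul_eq_zero, or_iff_right (hk u hu).1] at e1
    rw [one_smul, zero_smul, zero_add, (hk v hv).2, dotProduct_smul, smul_eq_mul,
      mul_eq_zero, or_iff_right (hk v hv).1] at e2
    rw [hb', dotProduct_smul, smul_eq_mul, mul_eq_zero, or_iff_right hb] at e3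
    simp only [dotProduct_add, dotProduct_smul, smul_eq_mul] at e1 e2 e3
    have hmc : m ⬝ᵥ c ≠ 0 := by
      intro h
      rw [h] at e1 e2
      exact hm (zero_of_det (by simpa using e1) (by simpa using e2) h hd)
    apply mul_left_cancel₀ (mul_ne_zero (mul_ne_zero hu hv) hmc)
    linear_combination (l ⬝ᵥ v) * e1 - (l ⬝ᵥ u) * e2 - e3
  obtain ⟨u0, hu0⟩ : ∃ u0, l ⬝ᵥ u0 ≠ 0 := by
    by_contra hn
    push Not at hn
    refine hl (ext3 ?_ ?_ ?_)
    · have := hn ![1, 0, 0]; rw [dot3] at this; simpa using this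
    · have := hn ![0, 1, 0]; rw [dot3] at this; simpa using this
    · have := hn ![0, 0, 1]; rw [dot3] at this; simpa using this
  obtain ⟨w0, hw0, hd⟩ := exists_det hc hlc hu0
  refine ⟨k u0, fun u hu => ?_⟩
  by_cases hlu : l ⬝ᵥ u = 0
  · obtain ⟨b, -, hb⟩ := hfix u hu hlu
    exact ⟨b, by rw [hlu, zero_smul, add_zero, hb]⟩
  refine ⟨a u, ?_⟩
  suffices k u0 = k u by rw [this]; exact (hk u hlu).2
  by_cases h : det3 u0 u c = 0
  · obtain ⟨α, β, hu'⟩ := span_of_det hd h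
    have hα : α ≠ 0 := by
      rintro rfl
      apply hlu
      rw [hu', zero_smul, zero_add, dotProduct_smul, hlc, smul_zero]
    rw [s2 u0 w0 hu0 hw0 hd, s2 u w0 hlu hw0 ?_]
    convert mul_ne_zero hα hd using 1
    rw [hu']
    simp only [det3, Pi.add_apply, Pi.smul_apply, smul_eq_mul]; ring
  · exact s2 u0 u hu0 hlu h

/-- The transvection with axis `l` and direction `d`. -/
def tv (l d : Fin 3 → F) (h : l ⬝ᵥ d = 0) : SL(3, F) :=
  ⟨1 + vecMulVec d l, by
    rw [dot3] at h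
    simp only [det_fin_three, Matrix.add_apply, vecMulVec_apply, one_apply_eq, ne_eq, Fin.reduceEq,
      not_false_eq_true, one_apply_ne]
    linear_combination h⟩

theorem tv_vec (l d : Fin 3 → F) (h : l ⬝ᵥ d = 0) (u : Fin 3 → F) :
    tv l d h • u = u + (l ⬝ᵥ u) • d := by
  change (1 + vecMulVec d l) *ᵥ u = _
  rw [add_mulVec, one_mulVec, vecMulVec_mulVec]
  simp

open Matrix.SpecialLinearGroup in
theorem sl3_gen (H : Subgroup SL(3, F))
    (h : ∀ (i j : Fin 3) (hij : i ≠ j) (a : F), transvection hij a ∈ H) : H = ⊤ := by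
  refine eq_top_iff.2 fun M _ => diagonal_transvection_induction' (· ∈ H) M (fun i j hij c hc => ?_) h
    fun _ _ => H.mul_mem
  have : diag2n hij c hc = transvection hij c * transvection hij.symm (-c⁻¹) * transvection hij c *
      (transvection hij (-1) * transvection hij.symm 1 * transvection hij (-1)) := by
    ext a b
    fin_cases i <;> fin_cases j <;> (try exact absurd rfl hij) <;> fin_cases a <;> fin_cases b <;>
      simp [diag2n_coe, transvection_coe, Matrix.mul_apply, Fin.sum_univ_three, Matrix.one_apply,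
        Matrix.single_apply, hc]
  rw [this]
  exact mul_mem (mul_mem (mul_mem (h ..) (h ..)) (h ..)) (mul_mem (mul_mem (h ..) (h ..)) (h ..))

theorem sl_ne (M : SL(3, F)) {u : Fin 3 → F} (hu : u ≠ 0) : M • u ≠ 0 := by
  intro h
  apply hu
  rw [← inv_smul_smul M u, h]
  exact mulVec_zero _

theorem center_iff (M : SL(3, F)) :
    M ∈ Subgroup.center SL(3, F) ↔ ∀ u : Fin 3 → F, u ≠ 0 → ∃ a : F, M • u = a • u := by
  rw [Matrix.SpecialLinearGroup.mem_center_iff]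
  simp only [Matrix.SpecialLinearGroup.smul_def, smul_eq_mulVec]
  constructor
  · rintro ⟨r, -, hr⟩ u -
    exact ⟨r, by rw [← hr]; ext i; simp [scalar_apply, mulVec_diagonal]⟩
  · intro h
    obtain ⟨a0, h0⟩ := h ![1, 0, 0] (fun e => by simpa using congrFun e 0)
    obtain ⟨a1, h1⟩ := h ![0, 1, 0] (fun e => by simpa using congrFun e 1)
    obtain ⟨a2, h2⟩ := h ![0, 0, 1] (fun e => by simpa using congrFun e 2)
    obtain ⟨a3, h3⟩ := h ![1, 1, 1] (fun e => by simpa using congrFun e 2)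
    have b0 := congrFun h0 1
    have b1 := congrFun h0 2
    have b2 := congrFun h1 0
    have b3 := congrFun h1 2
    have b4 := congrFun h2 0
    have b5 := congrFun h2 1
    have b6 := congrFun h3 0
    have b7 := congrFun h3 1
    have b8 := congrFun h3 2
    simp only [mulVec, dot3] at b0 b1 b2 b3 b4 b5 b6 b7 b8
    simp at b0 b1 b2 b3 b4 b5 b6 b7 b8
    rw [b2, b4] at b6
    rw [b0, b5] at b7
    rw [b1, b3] at b8
    simp only [add_zero, zero_add] at b6 b7 b8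
    have e : scalar (Fin 3) a3 = (M : Matrix (Fin 3) (Fin 3) F) := by
      ext i j
      fin_cases i <;> fin_cases j <;> simp [b0, b1, b2, b3, b4, b5, b6, b7, b8]
    refine ⟨a3, ?_, e⟩
    have := M.det_coe
    rw [← e] at this
    simpa [scalar_apply] using this

/-- A group acting faithfully on the plane as `SL₃` does. -/
theorem iso {G P : Type*} [Group G] (act : G → P → P) (hone : ∀ p, act 1 p = p)
    (hmul : ∀ g h p, act g (act h p) = act (g * h) p) (f : (Fin 3 → F) → P)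
    (hf : ∀ u ≠ 0, ∀ v ≠ 0, f u = f v ↔ ∃ a : F, u = a • v)
    (hfaith : ∀ g, (∀ u ≠ 0, act g (f u) = f u) → g = 1)
    (hgen : ∀ g, ∃ M : SL(3, F), ∀ u ≠ 0, act g (f u) = f (M • u))
    (htr : ∀ i j : Fin 3, i ≠ j → ∀ s : F, ∃ g, ∀ u ≠ 0,
      act g (f u) = f (u + u j • s • Pi.single i 1)) :
    Nonempty (G ≃* Matrix.ProjectiveSpecialLinearGroup (Fin 3) F) := by
  have hm : ∀ (M N : SL(3, F)) (g k : G), (∀ u ≠ 0, act g (f u) = f (M • u)) →
      (∀ u ≠ 0, act k (f u) = f (N • u)) → ∀ u ≠ 0, act (g * k) (f u) = f ((M * N) • u) :=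
    fun M N g k hg hk u hu => by
      rw [← hmul, hk u hu, hg _ (sl_ne N hu), mul_smul]
  have hi : ∀ (M : SL(3, F)) (g : G), (∀ u ≠ 0, act g (f u) = f (M • u)) →
      ∀ u ≠ 0, act g⁻¹ (f u) = f (M⁻¹ • u) := fun M g hg u hu => by
    have := hg _ (sl_ne M⁻¹ hu)
    rw [smul_inv_smul] at this
    rw [← this, hmul, inv_mul_cancel, hone]
  have hu : ∀ (M : SL(3, F)) (g k : G), (∀ u ≠ 0, act g (f u) = f (M • u)) →
      (∀ u ≠ 0, act k (f u) = f (M • u)) → g = k := fun M g k hg hk => by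
    refine (inv_mul_eq_one.1 (hfaith _ fun u hu => ?_))
    rw [hm _ _ _ _ (hi M g hg) hk u hu, inv_mul_cancel, one_smul]
  let H : Subgroup SL(3, F) :=
    { carrier := {M | ∃ g, ∀ u ≠ 0, act g (f u) = f (M • u)}
      mul_mem' := fun ⟨g, hg⟩ ⟨k, hk⟩ => ⟨g * k, hm _ _ _ _ hg hk⟩
      one_mem' := ⟨1, fun u _ => by rw [hone, one_smul]⟩
      inv_mem' := fun ⟨g, hg⟩ => ⟨g⁻¹, hi _ _ hg⟩ }
  have hH : H = ⊤ := sl3_gen H fun i j hij s => by
    obtain ⟨g, hg⟩ := htr i j hij s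
    refine ⟨g, fun u hu => ?_⟩
    rw [hg u hu, Matrix.SpecialLinearGroup.smul_def, smul_eq_mulVec, Matrix.SpecialLinearGroup.transvection_coe,
      add_mulVec, one_mulVec, single_mulVec_eq]
    congr 2
    rw [smul_smul, mul_comm]
  have hex : ∀ M : SL(3, F), ∃ g, ∀ u ≠ 0, act g (f u) = f (M • u) := fun M =>
    (hH ▸ Subgroup.mem_top M : M ∈ H)
  choose θ hθ using hex
  let Θ : SL(3, F) →* G := MonoidHom.mk' θ fun M N =>
    hu (M * N) _ _ (hθ _) (hm _ _ _ _ (hθ M) (hθ N))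
  have hs : Function.Surjective Θ := fun g => by
    obtain ⟨M, hM⟩ := hgen g
    exact ⟨M, hu M _ _ (hθ M) hM⟩
  have hk : Θ.ker = Subgroup.center SL(3, F) := by
    ext M
    rw [MonoidHom.mem_ker, center_iff]
    constructor
    · intro h u hu
      have := hθ M u hu
      rw [show θ M = 1 from h, hone] at this
      exact (hf _ (sl_ne M hu) _ hu).1 this.symm
    · intro h
      exact hfaith _ fun u hu => (hθ M u hu).trans ((hf _ (sl_ne M hu) _ hu).2 (h u hu))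
  exact ⟨((QuotientGroup.quotientMulEquivOfEq hk.symm).trans
    (QuotientGroup.quotientKerEquivOfSurjective Θ hs)).symm⟩

end Cfsg.Agent.C2.Pl
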